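/-
The O'Nan group as presented: identities of words from the base points (helper16).
-/
import Cfsg.Agent.Lib.ToddCox.ONO.Main
import Cfsg.Agent.Lib.ToddCox.ONO.BaseL
import Cfsg.Agent.Lib.ToddCox.WordHom
import Cfsg.Agent.Lib.ToddCox.PermPkg

set_option autoImplicit false
set_option maxRecDepth 100000

namespace Cfsg.Agent.Lib.ToddCox.ONCov

open Cfsg.Agent.Lib.ToddCox.ONO
open Cfsg.Agent.Lib.ToddCox.ON122760 (rels RL sg LT Iv Sl Gl letters rep_exists tab)

theorem rep_faithful : ∃ ρ : PresentedGroup rels →* Equiv.Perm (Fin 122760),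
    (∀ r (i : Fin 122760), ((ρ (PresentedGroup.mk rels r) i : Fin 122760) : ℕ) = tabW tab (relW sg r) i) ∧
      Function.Injective ρ ∧ Nat.card (PresentedGroup rels) = 460815505920 := by
  obtain ⟨ρ, hρ⟩ := rep_exists
  have hc := card_bd
  obtain ⟨hcard, hinj⟩ := card_and_faithful hc.1 hc.2 (low hρ) (fun w _ => ⟨_, rfl⟩)
  exact ⟨ρ, hρ, hinj, hcard⟩

theorem word_one {w : List ℕ} (hw : ∀ a ∈ w, a < 8) (hb : ∀ b ∈ baseL, tabW tab w b = b) : wordVal gen w = 1 := by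
  obtain ⟨ρ, hρ, hinj, hcard⟩ := rep_faithful
  exact word_one_of hρ hinj hcard hw hb

theorem word_ne_one {w : List ℕ} (hw : ∀ a ∈ w, a < 8) {k : ℕ} (hk : k < 122760) (h : tabW tab w k ≠ k) :
    wordVal gen w ≠ 1 := by
  obtain ⟨ρ, hρ, _, _⟩ := rep_faithful
  intro h1
  have h2 := rep_word hρ hLT hw ⟨k, hk⟩
  rw [h1, map_one] at h2
  exact h h2.symm

theorem mk_eq_word (r : FreeGroup Cfsg.Spor.ON.Gen) : PresentedGroup.mk rels r = wordVal gen (relW sg r) := by
  rw [← lift_eq_wordVal (PresentedGroup.of : Cfsg.Spor.ON.Gen → PresentedGroup rels) gen sg letters.genSg r, mk_eq_lift]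

end Cfsg.Agent.Lib.ToddCox.ONCov
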