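/-
In the presented O'Nan group the subgroup generated by a, …, f has a normal subgroup of index two isomorphic to L₃(7) (helper16).
-/
import Cfsg.Agent.Lib.ToddCox.ONCov.Base
import Cfsg.Agent.Lib.ToddCox.L37O.Main
import Cfsg.Agent.Lib.Classical.Card2

set_option autoImplicit false
set_option maxRecDepth 100000

namespace Cfsg.Agent.Lib.ToddCox.ONCov

open Cfsg.Spor Cfsg.Agent.Lib.ToddCox.ONO
open Cfsg.Agent.Lib.ToddCox.ON122760 (rels RL sg LT Iv Sl Gl letters rep_exists tab inv reach index_eq)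

def waL : OPL37.Gen → List ℕ
  | .a => [4, 3, 2, 3, 4, 3, 0, 1, 2, 3, 0, 1, 2, 3, 4, 5, 3, 0, 1, 5, 2, 5, 4, 0, 3, 1, 5, 2, 5, 2, 5, 4, 0, 3, 1, 5, 2, 5, 2, 5, 4, 0, 3, 1, 5, 2, 5, 2, 5, 4, 0, 3, 1, 5, 2, 5, 2, 5, 4, 0, 3, 1, 5, 2, 5, 2, 5, 4, 0, 3, 1, 5, 2, 1, 0, 3, 5, 4, 3, 2, 1, 0, 3, 2, 1, 0, 3, 4, 3, 2, 3, 4]
  | .b => [4, 3, 2, 3, 4, 5, 3, 2, 3, 1, 5, 2, 5, 4, 0, 3, 1, 5, 2, 5, 2, 5, 4, 0, 3, 1, 5, 2, 5, 2, 5, 4, 0, 3, 1, 5, 2, 5, 2, 5, 4, 0, 3, 1, 5, 2, 5, 2, 5, 4, 0, 3, 1, 5, 2, 5, 2, 5, 4, 0, 3, 1, 5, 2, 1, 3, 2, 3, 5, 4, 3, 2, 3, 4]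
  | .c => [2, 3, 4, 3, 2, 3, 1, 2, 3, 4, 3, 1, 2, 3, 1, 2, 3, 1, 5, 2, 5, 4, 0, 3, 1, 5, 2, 5, 2, 5, 4, 0, 3, 1, 5, 2, 5, 2, 5, 4, 0, 3, 1, 5, 2, 5, 2, 5, 4, 0, 3, 1, 5, 2, 5, 2, 5, 4, 0, 3, 1, 5, 2, 5, 2, 5, 4, 0, 3, 1, 5, 2, 1, 3, 2, 1, 3, 2, 1, 3, 4, 3, 2, 1, 3, 2, 3, 4, 3, 2]
  | .d => [2, 3, 1, 2, 3, 4, 0, 1, 2, 3, 2, 3, 4, 5, 3, 0, 1, 5, 2, 5, 4, 0, 3, 1, 5, 2, 5, 2, 5, 4, 0, 3, 1, 5, 2, 5, 2, 5, 4, 0, 3, 1, 5, 2, 5, 2, 5, 4, 0, 3, 1, 5, 2, 5, 2, 5, 4, 0, 3, 1, 5, 2, 5, 2, 5, 4, 0, 3, 1, 5, 2, 1, 0, 3, 5, 4, 3, 2, 3, 2, 1, 0, 4, 3, 2, 1, 3, 2]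
  | .e => [1, 2, 3, 4, 1, 2, 3, 0, 1, 2, 3, 4, 1, 2, 3, 0, 1, 2, 3, 0, 1, 5, 2, 5, 4, 0, 3, 1, 5, 2, 5, 2, 5, 4, 0, 3, 1, 5, 2, 5, 2, 5, 4, 0, 3, 1, 5, 2, 5, 2, 5, 4, 0, 3, 1, 5, 2, 5, 2, 5, 4, 0, 3, 1, 5, 2, 5, 2, 5, 4, 0, 3, 1, 5, 2, 1, 0, 3, 2, 1, 0, 3, 2, 1, 4, 3, 2, 1, 0, 3, 2, 1, 4, 3, 2, 1]
  | .f => [5, 4, 2, 3, 0, 1, 2, 3, 4, 3, 2, 3, 1, 2, 3, 4, 5, 3, 0, 1, 5, 2, 5, 4, 0, 3, 1, 5, 2, 5, 2, 5, 4, 0, 3, 1, 5, 2, 5, 2, 5, 4, 0, 3, 1, 5, 2, 5, 2, 5, 4, 0, 3, 1, 5, 2, 5, 2, 5, 4, 0, 3, 1, 5, 2, 5, 2, 5, 4, 0, 3, 1, 5, 2, 1, 0, 3, 5, 4, 3, 2, 1, 3, 2, 3, 4, 3, 2, 1, 0, 3, 2, 4, 5]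
  | .g => [2, 3, 1, 2, 3, 4, 3, 2, 3, 0, 1, 2, 3, 4, 5, 3, 0, 1, 5, 2, 5, 4, 0, 3, 1, 5, 2, 5, 2, 5, 4, 0, 3, 1, 5, 2, 5, 2, 5, 4, 0, 3, 1, 5, 2, 5, 2, 5, 4, 0, 3, 1, 5, 2, 5, 2, 5, 4, 0, 3, 1, 5, 2, 5, 2, 5, 4, 0, 3, 1, 5, 2, 1, 0, 3, 5, 4, 3, 2, 1, 0, 3, 2, 3, 4, 3, 2, 1, 3, 2]
  | .h => [3, 0, 1, 2, 3, 4, 5, 3, 5, 2, 5, 4, 0, 3, 1, 5, 2, 5, 2, 5, 4, 0, 3, 1, 5, 2, 5, 2, 5, 4, 0, 3, 1, 5, 2, 5, 2, 5, 4, 0, 3, 1, 5, 2, 5, 2, 5, 4, 0, 3, 1, 5, 2, 5, 2, 5, 4, 0, 3, 1, 5, 2, 3, 5, 4, 3, 2, 1, 0, 3]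

theorem L_let : ∀ r ∈ coxList OPL37.edges ++ OPL37.extra, ∀ a ∈ wsubst waL inv r, a < 8 := by decide +kernel
theorem L_fix : ∀ r ∈ coxList OPL37.edges ++ OPL37.extra, ∀ b ∈ baseL, tabW tab (wsubst waL inv r) b = b := by decide +kernel

theorem L_rel : ∀ r ∈ coxList OPL37.edges ++ OPL37.extra, FreeGroup.lift (fun a => wordVal gen (waL a)) r = 1 := by
  intro r hr
  rw [lift_eq_wsubst gen inv letters.genInv]
  exact word_one (L_let r hr) (L_fix r hr)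

abbrev QL : Type := PresentedGroup (coxRelators OPL37.edges ∪ {r | r ∈ OPL37.extra})

noncomputable def φL : QL →* PresentedGroup rels := presMap OPL37.edges OPL37.extra _ L_rel

theorem φL_ne : φL (PresentedGroup.of .a) ≠ 1 := by
  show presMap OPL37.edges OPL37.extra _ L_rel (PresentedGroup.of .a) ≠ 1
  rw [presMap_of]
  exact word_ne_one (by decide +kernel) (k := 1) (by norm_num) (by decide +kernel)

theorem φL_inj : Function.Injective φL := injective_of_simple L37O.main.1 φL φL_ne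

theorem gen_mem : ∀ y, y < 6 → gen y ∈ subG rels Sl := by
  intro y hy
  have h : ∀ y, y < 6 → LT.getD y 1 ∈ Sl := by decide +kernel
  have h2 : PresentedGroup.mk rels (LT.getD y 1) ∈ subG rels Sl := subG_mem (h y hy)
  exact h2

theorem waL_lt : ∀ x, ∀ y ∈ waL x, y < 6 := by
  intro x
  cases x <;> decide +kernel

theorem φL_mem (q : QL) : φL q ∈ subG rels Sl := by
  have : φL.range ≤ subG rels Sl := by
    apply range_le_of_gens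
    intro a
    show presMap OPL37.edges OPL37.extra _ L_rel (PresentedGroup.of a) ∈ _
    rw [presMap_of]
    exact wordVal_mem gen _ (fun y hy => gen_mem y (waL_lt a y hy))
  exact this ⟨q, rfl⟩

noncomputable def ψL : QL →* subG rels Sl := φL.codRestrict _ φL_mem

theorem ψL_inj : Function.Injective ψL := by
  intro a b hab
  exact φL_inj (congrArg Subtype.val hab)

theorem card_H : Nat.card (subG rels Sl) = 3753792 := by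
  obtain ⟨ρ, hρ, hinj, hcard⟩ := rep_faithful
  have h := Subgroup.card_mul_index (subG rels Sl)
  rw [index_eq, hcard] at h
  exact Nat.eq_of_mul_eq_mul_right (by norm_num : 0 < 122760) (h.trans (by norm_num))

/-! The matrices. -/

abbrev SL3 : Type := Matrix.SpecialLinearGroup (Fin 3) (ZMod 7)
abbrev PSL3 : Type := Matrix.ProjectiveSpecialLinearGroup (Fin 3) (ZMod 7)

def ta : SL3 := ⟨!![6, 0, 0; 0, 6, 0; 0, 0, 1], by decide +kernel⟩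
def tb : SL3 := ⟨!![5, 1, 0; 4, 2, 0; 0, 0, 6], by decide +kernel⟩
def tc : SL3 := ⟨!![6, 0, 0; 0, 6, 0; 2, 4, 1], by decide +kernel⟩
def td : SL3 := ⟨!![6, 0, 0; 0, 6, 0; 5, 5, 1], by decide +kernel⟩
def te : SL3 := ⟨!![2, 1, 0; 4, 5, 0; 0, 0, 6], by decide +kernel⟩
def tf : SL3 := ⟨!![1, 6, 0; 0, 6, 0; 2, 6, 6], by decide +kernel⟩
def tg : SL3 := ⟨!![3, 6, 0; 1, 4, 0; 2, 3, 6], by decide +kernel⟩
def th : SL3 := ⟨!![3, 6, 4; 3, 0, 3; 4, 6, 3], by decide +kernel⟩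

def T : OPL37.Gen → SL3
  | .a => ta
  | .b => tb
  | .c => tc
  | .d => td
  | .e => te
  | .f => tf
  | .g => tg
  | .h => th

def sc (c : ZMod 7) : Matrix (Fin 3) (Fin 3) (ZMod 7) := Matrix.scalar (Fin 3) c

theorem T_rels : ∀ r ∈ coxList OPL37.edges ++ OPL37.extra,
    ∃ c : ZMod 7, c ^ 3 = 1 ∧ Matrix.scalar (Fin 3) c = ((FreeGroup.lift T r : SL3) : Matrix (Fin 3) (Fin 3) (ZMod 7)) := by
  decide +kernel

theorem T_rels' (r : FreeGroup OPL37.Gen) (hr : r ∈ coxList OPL37.edges ++ OPL37.extra) :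
    FreeGroup.lift T r ∈ Subgroup.center SL3 := by
  obtain ⟨c, h1, h2⟩ := T_rels r hr
  rw [Matrix.SpecialLinearGroup.mem_center_iff]
  refine ⟨c, ?_, h2⟩
  simpa using h1

def Tq (a : OPL37.Gen) : PSL3 := QuotientGroup.mk' (Subgroup.center SL3) (T a)

theorem Tq_rel : ∀ r ∈ coxList OPL37.edges ++ OPL37.extra, FreeGroup.lift Tq r = 1 := by
  intro r hr
  have h1 : FreeGroup.lift Tq = (QuotientGroup.mk' (Subgroup.center SL3)).comp (FreeGroup.lift T) := by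
    ext a
    simp [Tq]
  rw [h1]
  show QuotientGroup.mk' (Subgroup.center SL3) (FreeGroup.lift T r) = 1
  rw [QuotientGroup.mk'_apply, QuotientGroup.eq_one_iff]
  exact T_rels' r hr

noncomputable def φP : QL →* PSL3 := presMap OPL37.edges OPL37.extra Tq Tq_rel

theorem ta_not : ¬ ∃ c : ZMod 7, c ^ 3 = 1 ∧ Matrix.scalar (Fin 3) c = ((T .a : SL3) : Matrix (Fin 3) (Fin 3) (ZMod 7)) := by
  decide +kernel

theorem φP_ne : φP (PresentedGroup.of .a) ≠ 1 := by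
  show presMap OPL37.edges OPL37.extra Tq Tq_rel (PresentedGroup.of .a) ≠ 1
  rw [presMap_of]
  intro h
  have h2 : T .a ∈ Subgroup.center SL3 := (QuotientGroup.eq_one_iff _).mp h
  rw [Matrix.SpecialLinearGroup.mem_center_iff] at h2
  obtain ⟨c, h3, h4⟩ := h2
  exact ta_not ⟨c, by simpa using h3, h4⟩

theorem φP_inj : Function.Injective φP := injective_of_simple L37O.main.1 φP φP_ne

local instance : Fact (Nat.Prime 7) := ⟨by norm_num⟩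

theorem card_PSL : Nat.card PSL3 = 1876896 := by
  have h := Cfsg.Agent.Lib.Classical.card_GL_eq_gcd_mul_card_PSL (F := ZMod 7) 3 (by norm_num)
  rw [Nat.card_eq_fintype_card (α := ZMod 7), ZMod.card, Matrix.card_GL_field] at h
  simp only [ZMod.card, Fin.prod_univ_three, Fin.val_zero, Fin.val_one, Fin.val_two] at h
  norm_num [-Nat.card_eq_fintype_card] at h
  have h3 : 33784128 = 3 * (6 * Nat.card PSL3) := h
  omega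

theorem L37_main : ∃ N : Subgroup (subG rels Sl), N.Normal ∧ N.index = 2 ∧ Nonempty (N ≃* PSL3) := by
  have hc : Nat.card QL = 1876896 := L37O.main.2
  exact index_two_of_embed ψL ψL_inj φP φP_inj (card_PSL.trans hc.symm) (by rw [hc]; norm_num) (by rw [card_H, hc])

end Cfsg.Agent.Lib.ToddCox.ONCov
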