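/-
Subgroups of the O'Nan group given by words: a simple group of order 175560 and one of order 7920 (helper16).
-/
import Cfsg.Agent.Lib.ToddCox.ONCov.Base
import Cfsg.Agent.Lib.ToddCox.J1O.Main
import Cfsg.Agent.Lib.ToddCox.M11O.Main
import Cfsg.Prelude.Def_Sporadic
import Cfsg.Prelude.Def_SporadicB

set_option autoImplicit false
set_option maxRecDepth 100000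

namespace Cfsg.Agent.Lib.ToddCox.ONCov

open Cfsg.Spor Cfsg.Agent.Lib.ToddCox.ONO
open Cfsg.Agent.Lib.ToddCox.ON122760 (rels RL sg LT Iv Sl Gl letters rep_exists tab inv reach)

def waJ1 : OPJ1.Gen → List ℕ
  | .a => [1, 4, 3, 2, 3, 4, 1, 5, 3, 4, 3, 5, 6, 2, 3, 2, 6, 1, 4, 3, 2, 3, 4, 1, 6, 2, 3, 2, 6, 5, 3, 4, 3, 5, 6, 2, 3, 2, 6, 1, 4, 3, 2, 3, 4, 1, 5, 3, 4, 3, 5, 6, 2, 3, 2, 6, 5, 3, 4, 3, 5, 6, 2, 3, 2, 6, 5, 3, 4, 3, 5, 1, 4, 3, 2, 3, 4, 1, 6, 2, 3, 2, 6, 5, 3, 4, 3, 5, 6, 2, 3, 2, 6, 1, 4, 3, 2, 3, 4, 1, 6, 2, 3, 2, 6, 5, 3, 4, 3, 5, 1, 4, 3, 2, 3, 4, 1]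
  | .b => [1, 4, 3, 2, 3, 4, 1, 6, 2, 3, 2, 6, 5, 3, 4, 3, 5, 6, 2, 3, 2, 6, 1, 4, 3, 2, 3, 4, 1, 5, 3, 4, 3, 5, 6, 2, 3, 2, 6, 1, 4, 3, 2, 3, 4, 1, 6, 2, 3, 2, 6, 1, 4, 3, 2, 3, 4, 1, 5, 3, 4, 3, 5, 6, 2, 3, 2, 6, 1, 4, 3, 2, 3, 4, 1, 5, 3, 4, 3, 5, 6, 2, 3, 2, 6, 5, 3, 4, 3, 5, 6, 2, 3, 2, 6, 5, 3, 4, 3, 5, 1, 4, 3, 2, 3, 4, 1, 6, 2, 3, 2, 6, 5, 3, 4, 3, 5, 1, 4, 3, 2, 3, 4, 1, 6, 2, 3, 2, 6, 1, 4, 3, 2, 3, 4, 1, 6, 2, 3, 2, 6, 5, 3, 4, 3, 5, 1, 4, 3, 2, 3, 4, 1, 6, 2, 3, 2, 6, 5, 3, 4, 3, 5, 6, 2, 3, 2, 6, 1, 4, 3, 2, 3, 4, 1]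
  | .c => [1, 4, 3, 2, 3, 4, 1, 5, 3, 4, 3, 5, 6, 2, 3, 2, 6, 1, 4, 3, 2, 3, 4, 1, 6, 2, 3, 2, 6, 5, 3, 4, 3, 5, 6, 2, 3, 2, 6, 1, 4, 3, 2, 3, 4, 1, 5, 3, 4, 3, 5, 6, 2, 3, 2, 6, 1, 4, 3, 2, 3, 4, 1, 5, 3, 4, 3, 5, 6, 2, 3, 2, 6, 1, 4, 3, 2, 3, 4, 1, 6, 2, 3, 2, 6, 5, 3, 4, 3, 5, 6, 2, 3, 2, 6, 1, 4, 3, 2, 3, 4, 1, 6, 2, 3, 2, 6, 5, 3, 4, 3, 5, 1, 4, 3, 2, 3, 4, 1, 6, 2, 3, 2, 6, 5, 3, 4, 3, 5, 1, 4, 3, 2, 3, 4, 1, 6, 2, 3, 2, 6, 5, 3, 4, 3, 5, 6, 2, 3, 2, 6, 1, 4, 3, 2, 3, 4, 1, 6, 2, 3, 2, 6, 5, 3, 4, 3, 5, 1, 4, 3, 2, 3, 4, 1]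
  | .d => [5, 3, 4, 3, 5, 6, 2, 3, 2, 6, 1, 4, 3, 2, 3, 4, 1, 6, 2, 3, 2, 6, 1, 4, 3, 2, 3, 4, 1, 6, 2, 3, 2, 6, 1, 4, 3, 2, 3, 4, 1, 6, 2, 3, 2, 6, 1, 4, 3, 2, 3, 4, 1, 5, 3, 4, 3, 5, 6, 2, 3, 2, 6, 1, 4, 3, 2, 3, 4, 1, 5, 3, 4, 3, 5, 6, 2, 3, 2, 6, 5, 3, 4, 3, 5, 6, 2, 3, 2, 6, 5, 3, 4, 3, 5, 6, 2, 3, 2, 6, 5, 3, 4, 3, 5, 6, 2, 3, 2, 6, 5, 3, 4, 3, 5, 1, 4, 3, 2, 3, 4, 1, 6, 2, 3, 2, 6, 5, 3, 4, 3, 5, 1, 4, 3, 2, 3, 4, 1, 6, 2, 3, 2, 6, 1, 4, 3, 2, 3, 4, 1, 6, 2, 3, 2, 6, 1, 4, 3, 2, 3, 4, 1, 6, 2, 3, 2, 6, 1, 4, 3, 2, 3, 4, 1, 6, 2, 3, 2, 6, 5, 3, 4, 3, 5]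
  | .e => [6, 2, 3, 2, 6, 1, 4, 3, 2, 3, 4, 1, 6, 2, 3, 2, 6, 1, 4, 3, 2, 3, 4, 1, 6, 2, 3, 2, 6, 1, 4, 3, 2, 3, 4, 1, 6, 2, 3, 2, 6, 1, 4, 3, 2, 3, 4, 1, 6, 2, 3, 2, 6, 5, 3, 4, 3, 5, 6, 2, 3, 2, 6, 1, 4, 3, 2, 3, 4, 1, 6, 2, 3, 2, 6, 5, 3, 4, 3, 5, 6, 2, 3, 2, 6, 5, 3, 4, 3, 5, 6, 2, 3, 2, 6, 5, 3, 4, 3, 5, 6, 2, 3, 2, 6, 1, 4, 3, 2, 3, 4, 1, 6, 2, 3, 2, 6, 5, 3, 4, 3, 5, 6, 2, 3, 2, 6, 1, 4, 3, 2, 3, 4, 1, 6, 2, 3, 2, 6, 1, 4, 3, 2, 3, 4, 1, 6, 2, 3, 2, 6, 1, 4, 3, 2, 3, 4, 1, 6, 2, 3, 2, 6, 1, 4, 3, 2, 3, 4, 1, 6, 2, 3, 2, 6]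

theorem J1_let : ∀ r ∈ coxList OPJ1.edges ++ OPJ1.extra, ∀ a ∈ wsubst waJ1 inv r, a < 8 := by decide +kernel
theorem J1_fix : ∀ r ∈ coxList OPJ1.edges ++ OPJ1.extra, ∀ b ∈ baseL, tabW tab (wsubst waJ1 inv r) b = b := by decide +kernel

theorem J1_rel : ∀ r ∈ coxList OPJ1.edges ++ OPJ1.extra, FreeGroup.lift (fun a => wordVal gen (waJ1 a)) r = 1 := by
  intro r hr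
  rw [lift_eq_wsubst gen inv letters.genInv]
  exact word_one (J1_let r hr) (J1_fix r hr)

noncomputable def φJ1 : PresentedGroup (coxRelators OPJ1.edges ∪ {r | r ∈ OPJ1.extra}) →* PresentedGroup rels :=
  presMap OPJ1.edges OPJ1.extra _ J1_rel

theorem φJ1_ne : φJ1 (PresentedGroup.of .a) ≠ 1 := by
  show presMap OPJ1.edges OPJ1.extra _ J1_rel (PresentedGroup.of .a) ≠ 1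
  rw [presMap_of]
  exact word_ne_one (by decide +kernel) (k := 0) (by norm_num) (by decide +kernel)

def waM11 : OPM11.Gen → List ℕ
  | .a => [6, 1, 6, 6, 1, 6, 5, 2, 6, 3, 6, 4, 5, 2, 6, 3, 6, 4, 5, 2, 6, 3, 6, 4, 5, 2, 6, 3, 6, 4, 6, 1, 6, 5, 2, 6, 3, 6, 4, 5, 2, 6, 3, 6, 4, 5, 2, 6, 3, 6, 4, 5, 2, 6, 3, 6, 4, 6, 1, 6, 5, 2, 6, 3, 6, 4, 5, 2, 6, 3, 6, 4, 5, 2, 6, 3, 6, 4, 5, 2, 6, 3, 6, 4, 7, 1, 7, 7, 1, 7, 7, 1, 7, 4, 7, 3, 7, 2, 5, 4, 7, 3, 7, 2, 5, 4, 7, 3, 7, 2, 5, 4, 7, 3, 7, 2, 5, 7, 1, 7, 4, 7, 3, 7, 2, 5, 4, 7, 3, 7, 2, 5, 4, 7, 3, 7, 2, 5, 4, 7, 3, 7, 2, 5, 7, 1, 7, 4, 7, 3, 7, 2, 5, 4, 7, 3, 7, 2, 5, 4, 7, 3, 7, 2, 5, 4, 7, 3, 7, 2, 5, 7, 1, 7, 7, 1, 7]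
  | .b => [6, 1, 6, 6, 1, 6, 5, 2, 6, 3, 6, 4, 5, 2, 6, 3, 6, 4, 5, 2, 6, 3, 6, 4, 5, 2, 6, 3, 6, 4, 6, 1, 6, 5, 2, 6, 3, 6, 4, 5, 2, 6, 3, 6, 4, 5, 2, 6, 3, 6, 4, 5, 2, 6, 3, 6, 4, 6, 1, 6, 5, 2, 6, 3, 6, 4, 5, 2, 6, 3, 6, 4, 5, 2, 6, 3, 6, 4, 5, 2, 6, 3, 6, 4, 6, 1, 6, 5, 2, 6, 3, 6, 4, 5, 2, 6, 3, 6, 4, 5, 2, 6, 3, 6, 4, 5, 2, 6, 3, 6, 4, 7, 1, 7, 7, 1, 7, 7, 1, 7, 4, 7, 3, 7, 2, 5, 4, 7, 3, 7, 2, 5, 4, 7, 3, 7, 2, 5, 4, 7, 3, 7, 2, 5, 7, 1, 7, 4, 7, 3, 7, 2, 5, 4, 7, 3, 7, 2, 5, 4, 7, 3, 7, 2, 5, 4, 7, 3, 7, 2, 5, 7, 1, 7, 4, 7, 3, 7, 2, 5, 4, 7, 3, 7, 2, 5, 4, 7, 3, 7, 2, 5, 4, 7, 3, 7, 2, 5, 7, 1, 7, 4, 7, 3, 7, 2, 5, 4, 7, 3, 7, 2, 5, 4, 7, 3, 7, 2, 5, 4, 7, 3, 7, 2, 5, 7, 1, 7, 7, 1, 7]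
  | .c => [6, 1, 6, 5, 2, 6, 3, 6, 4, 5, 2, 6, 3, 6, 4, 5, 2, 6, 3, 6, 4, 5, 2, 6, 3, 6, 4, 6, 1, 6, 6, 1, 6, 5, 2, 6, 3, 6, 4, 5, 2, 6, 3, 6, 4, 5, 2, 6, 3, 6, 4, 5, 2, 6, 3, 6, 4, 6, 1, 6, 5, 2, 6, 3, 6, 4, 5, 2, 6, 3, 6, 4, 5, 2, 6, 3, 6, 4, 5, 2, 6, 3, 6, 4, 6, 1, 6, 6, 1, 6, 6, 1, 6, 5, 2, 6, 3, 6, 4, 5, 2, 6, 3, 6, 4, 5, 2, 6, 3, 6, 4, 5, 2, 6, 3, 6, 4, 7, 1, 7, 7, 1, 7, 7, 1, 7, 4, 7, 3, 7, 2, 5, 4, 7, 3, 7, 2, 5, 4, 7, 3, 7, 2, 5, 4, 7, 3, 7, 2, 5, 7, 1, 7, 7, 1, 7, 7, 1, 7, 4, 7, 3, 7, 2, 5, 4, 7, 3, 7, 2, 5, 4, 7, 3, 7, 2, 5, 4, 7, 3, 7, 2, 5, 7, 1, 7, 4, 7, 3, 7, 2, 5, 4, 7, 3, 7, 2, 5, 4, 7, 3, 7, 2, 5, 4, 7, 3, 7, 2, 5, 7, 1, 7, 7, 1, 7, 4, 7, 3, 7, 2, 5, 4, 7, 3, 7, 2, 5, 4, 7, 3, 7, 2, 5,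 4, 7, 3, 7, 2, 5, 7, 1, 7]
  | .d => [6, 1, 6, 5, 2, 6, 3, 6, 4, 5, 2, 6, 3, 6, 4, 5, 2, 6, 3, 6, 4, 5, 2, 6, 3, 6, 4, 6, 1, 6, 5, 2, 6, 3, 6, 4, 5, 2, 6, 3, 6, 4, 5, 2, 6, 3, 6, 4, 5, 2, 6, 3, 6, 4, 6, 1, 6, 5, 2, 6, 3, 6, 4, 5, 2, 6, 3, 6, 4, 5, 2, 6, 3, 6, 4, 5, 2, 6, 3, 6, 4, 6, 1, 6, 6, 1, 6, 6, 1, 6, 6, 1, 6, 5, 2, 6, 3, 6, 4, 5, 2, 6, 3, 6, 4, 5, 2, 6, 3, 6, 4, 5, 2, 6, 3, 6, 4, 7, 1, 7, 7, 1, 7, 7, 1, 7, 4, 7, 3, 7, 2, 5, 4, 7, 3, 7, 2, 5, 4, 7, 3, 7, 2, 5, 4, 7, 3, 7, 2, 5, 7, 1, 7, 7, 1, 7, 7, 1, 7, 7, 1, 7, 4, 7, 3, 7, 2, 5, 4, 7, 3, 7, 2, 5, 4, 7, 3, 7, 2, 5, 4, 7, 3, 7, 2, 5, 7, 1, 7, 4, 7, 3, 7, 2, 5, 4, 7, 3, 7, 2, 5, 4, 7, 3, 7, 2, 5, 4, 7, 3, 7, 2, 5, 7, 1, 7, 4, 7, 3, 7, 2, 5, 4, 7, 3,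 7, 2, 5, 4, 7, 3, 7, 2, 5, 4, 7, 3, 7, 2, 5, 7, 1, 7]
  | .e => [5, 2, 6, 3, 6, 4, 5, 2, 6, 3, 6, 4, 5, 2, 6, 3, 6, 4, 5, 2, 6, 3, 6, 4, 7, 1, 7, 7, 1, 7, 7, 1, 7, 4, 7, 3, 7, 2, 5, 4, 7, 3, 7, 2, 5, 4, 7, 3, 7, 2, 5, 4, 7, 3, 7, 2, 5]

theorem M11_let : ∀ r ∈ coxList OPM11.edges ++ OPM11.extra, ∀ a ∈ wsubst waM11 inv r, a < 8 := by decide +kernel
theorem M11_fix : ∀ r ∈ coxList OPM11.edges ++ OPM11.extra, ∀ b ∈ baseL, tabW tab (wsubst waM11 inv r) b = b := by decide +kernel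

theorem M11_rel : ∀ r ∈ coxList OPM11.edges ++ OPM11.extra, FreeGroup.lift (fun a => wordVal gen (waM11 a)) r = 1 := by
  intro r hr
  rw [lift_eq_wsubst gen inv letters.genInv]
  exact word_one (M11_let r hr) (M11_fix r hr)

noncomputable def φM11 : PresentedGroup (coxRelators OPM11.edges ∪ {r | r ∈ OPM11.extra}) →* PresentedGroup rels :=
  presMap OPM11.edges OPM11.extra _ M11_rel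

theorem φM11_ne : φM11 (PresentedGroup.of .a) ≠ 1 := by
  show presMap OPM11.edges OPM11.extra _ M11_rel (PresentedGroup.of .a) ≠ 1
  rw [presMap_of]
  exact word_ne_one (by decide +kernel) (k := 0) (by norm_num) (by decide +kernel)

theorem main : ∃ H : Subgroup (Equiv.Perm (Fin 122760)), Cfsg.IsON H ∧ MulAction.IsPretransitive H (Fin 122760) ∧
    Nat.card (MulAction.stabilizer H (0 : Fin 122760)) = 3753792 ∧ (∃ K : Subgroup H, Cfsg.IsJ1 K) ∧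
    (∃ K : Subgroup H, Cfsg.IsM11 K) := by
  obtain ⟨ρ, hρ, hinj, hcard⟩ := rep_faithful
  have htrans := rep_trans hρ (by norm_num) reach
  have htrans' : ∀ i : Fin 122760, ∃ g, ρ g 0 = i := htrans
  have hinj' : Function.Injective ρ.rangeRestrict := by
    intro a b hab
    exact hinj (congrArg Subtype.val hab)
  refine ⟨ρ.range, ?_, range_pretransitive ρ htrans', ?_, ?_, ?_⟩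
  · obtain ⟨h1, h2⟩ := simple_range_of_inj ONO.main.1 ρ hinj
    exact ⟨h1, h2.trans hcard⟩
  · have h := card_stabilizer_mul ρ hinj htrans'
    rw [hcard] at h
    omega
  · have hne : (ρ.rangeRestrict.comp φJ1) (PresentedGroup.of .a) ≠ 1 := by
      intro h
      exact φJ1_ne (hinj' (by simpa using h))
    obtain ⟨h1, h2⟩ := simple_range J1O.main.1 _ hne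
    exact ⟨_, h1, h2.trans J1O.main.2⟩
  · have hne : (ρ.rangeRestrict.comp φM11) (PresentedGroup.of .a) ≠ 1 := by
      intro h
      exact φM11_ne (hinj' (by simpa using h))
    obtain ⟨h1, h2⟩ := simple_range M11O.main.1 _ hne
    exact ⟨_, h1, h2.trans M11O.main.2⟩

end Cfsg.Agent.Lib.ToddCox.ONCov
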